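-- Team project OELM (S5990, helper58), packages [CNT1M] and [CNT2M] (helper87):
-- minus twins of helper6's OELP [CNT1] / [CNT2].
import Mathlib
import Cfsg.Agent.Lib.Helper58.OElm.Defs
import Cfsg.Agent.Lib.Helper6.OElp.Cnt

set_option autoImplicit false
open scoped MatrixGroups
open Matrix

namespace Cfsg.Agent.Lib.Helper87.OElm

open Cfsg.Agent.Lib.Helper23.OHyp Cfsg.Agent.Lib.Helper44.OElp Cfsg.Agent.Lib.Helper64.OParM
  Cfsg.Agent.Lib.Helper58.OElm Cfsg.Agent.Lib.Helper6.OElp

universe u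

/-- [CNT1M] -/
theorem pkgCnt1M_of (hMQ : PkgMinusQE.{u}) (hEx : PkgExistM.{u}) (hCong : PkgCongE.{u})
    (hFix : PkgCntFixE.{u}) (hIn : PkgCntInE.{u}) : PkgCnt1M.{u} := by
  intro F _ _ k r a b hab hr hr2 hrq m hme hm2 hmc hmk hdvd
  have hQ := (hMQ F k a b hab).1
  have hcpos : 0 < cc (Fintype.card F) r := cc_pos (ordI_pos hr hrq)
  have hcard : Fintype.card (MI k) = 2 * k + 2 := by
    simp [MI]
    ring
  have hX : ∃ x : GL (MI k) F, x ∈ Cfsg.isometryGroup F (Cfsg.quadFormMinus k F a b) ∧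
      x ^ r = 1 ∧
      Module.finrank F (fixSp (x : Matrix (MI k) (MI k) F)) < cc (Fintype.card F) r ∧
      m < Module.finrank F (fixSp (x : Matrix (MI k) (MI k) F)) := by
    by_cases hcn : cc (Fintype.card F) r ≤ 2 * k + 2
    · have hmodn := Nat.div_add_mod (2 * k + 2) (cc (Fintype.card F) r)
      have hJ1 : 1 ≤ (2 * k + 2) / cc (Fintype.card F) r := Nat.div_pos hcn hcpos
      obtain ⟨x, hxiso, hxord, hxfix⟩ := hEx F k r a b hab hr hr2 hrq _ hJ1
        (Nat.mul_div_le _ _) (by intro h; exfalso; omega)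
      have hlt := Nat.mod_lt (2 * k + 2) hcpos
      refine ⟨x, hxiso, ?_, ?_, ?_⟩
      · rw [← hxord]
        exact pow_orderOf_eq_one x
      · omega
      · omega
    · push Not at hcn
      have h1 : fixSp (((1 : GL (MI k) F)) : Matrix (MI k) (MI k) F) = ⊤ := by
        rw [Units.val_one]
        exact fixSp_one
      refine ⟨1, one_mem _, one_pow r, ?_, ?_⟩
      · rw [h1, finrank_top, Module.finrank_fintype_fun_eq_card, hcard]
        exact hcn
      · rw [h1, finrank_top, Module.finrank_fintype_fun_eq_card, hcard]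
        rw [Nat.mod_eq_of_lt hcn] at hmk
        exact hmk
  obtain ⟨x, hxiso, hxr, hxlt, hxm⟩ := hX
  have hS := cnt_stdE hQ hr hr2 hrq hxiso hxr
  have hcong := hCong F _ _ m r hr x hxiso hxr
  rw [cnt_card_inv_eq hFix hS hmc] at hcong
  have hnin := hIn F _ _ r _ hS m hme hm2 hxm hxlt
  have h0 : Nat.card (EllSp (Cfsg.quadFormMinus k F a b) m) % r = 0 :=
    Nat.mod_eq_zero_of_dvd hdvd
  have h1 : Nat.card {W : EllSp (Cfsg.quadFormMinus k F a b) m //
      W.1 ≤ fixSp (x : Matrix (MI k) (MI k) F)} % r = 0 := by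
    rw [← hcong]
    exact h0
  exact hnin (Nat.dvd_of_mod_eq_zero h1)

/-- [CNT2M] -/
theorem pkgCnt2M_of (hMQ : PkgMinusQE.{u}) (hEx : PkgExistM.{u}) (hCong : PkgCongE.{u})
    (hFix : PkgCntFixE.{u}) (hSplit : PkgSplitE.{u}) (hDiv : PkgDivE.{u}) (hSum : PkgSumE.{u}) :
    PkgCnt2M.{u} := by
  intro F _ _ k r a b hab hr hr2 hrq m hme hm2 hmc hmk htype hdvd
  obtain ⟨hQ, hPtop⟩ := hMQ F k a b hab
  have hipos := ordI_pos hr hrq
  have hcpos : 0 < cc (Fintype.card F) r := cc_pos hipos
  have hceven : Even (cc (Fintype.card F) r) := by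
    unfold cc
    split_ifs with h
    · exact h
    · exact even_two_mul _
  have hcard : Fintype.card (MI k) = 2 * k + 2 := by
    simp [MI]
    ring
  have hX : ∃ x : GL (MI k) F, x ∈ Cfsg.isometryGroup F (Cfsg.quadFormMinus k F a b) ∧
      x ^ r = 1 ∧ Module.finrank F (fixSp (x : Matrix (MI k) (MI k) F)) = m ∧
      ¬ Plus (Cfsg.quadFormMinus k F a b) (fixSp (x : Matrix (MI k) (MI k) F)) := by
    by_cases hcn : cc (Fintype.card F) r ≤ 2 * k + 2
    · have hmodn := Nat.div_add_mod (2 * k + 2) (cc (Fintype.card F) r)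
      have hJ1 : 1 ≤ (2 * k + 2) / cc (Fintype.card F) r := Nat.div_pos hcn hcpos
      obtain ⟨x, hxiso, hxord, hxfix⟩ := hEx F k r a b hab hr hr2 hrq _ hJ1
        (Nat.mul_div_le _ _) (by intro h; exfalso; omega)
      have hxr : x ^ r = 1 := by
        rw [← hxord]
        exact pow_orderOf_eq_one x
      have hS := cnt_stdE hQ hr hr2 hrq hxiso hxr
      have hD : Module.finrank F (fixSp (x : Matrix (MI k) (MI k) F)) = m := by omega
      obtain ⟨hCnd, hNnd, hperp, hcompl, hNinv, -⟩ := hSplit F _ _ r _ hS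
      have hdimN : Module.finrank F (movSp (x : Matrix (MI k) (MI k) F))
          = cc (Fintype.card F) r * ((2 * k + 2) / cc (Fintype.card F) r) := by
        have h1 := Submodule.finrank_add_eq_of_isCompl hcompl
        rw [Module.finrank_fintype_fun_eq_card, hcard] at h1
        exact Nat.add_left_cancel (h1.trans hxfix.symm)
      obtain ⟨-, -, hstype⟩ := hSum F _ _ hQ _ _ hCnd hNnd hperp
      rw [hcompl.sup_eq_top] at hstype
      have hCeven : Even (Module.finrank F (fixSp (x : Matrix (MI k) (MI k) F))) := by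
        rw [hD]
        exact hme
      have hNeven : Even (Module.finrank F (movSp (x : Matrix (MI k) (MI k) F))) := by
        rw [hdimN]
        exact Even.mul_right hceven _
      have hiff := hstype hCeven hNeven
      obtain ⟨-, hNtype⟩ := hDiv F _ _ r _ hS _ le_rfl hNinv hNnd
      have hNplus : Plus (Cfsg.quadFormMinus k F a b)
          (movSp (x : Matrix (MI k) (MI k) F)) := by
        rw [hNtype]
        rcases htype with h | h
        · exact Or.inl h
        · by_cases hie : Even (ordI (Fintype.card F) r)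
          · right
            have hci : cc (Fintype.card F) r = ordI (Fintype.card F) r := cc_eq_of_even hie
            rw [hdimN, hci, Nat.mul_div_cancel_left _ hipos]
            exact h
          · exact Or.inl (Nat.not_even_iff_odd.1 hie)
      refine ⟨x, hxiso, hxr, hD, ?_⟩
      intro hC
      exact hPtop (hiff.2 ⟨fun _ => hNplus, fun _ => hC⟩)
    · push Not at hcn
      have h1 : fixSp (((1 : GL (MI k) F)) : Matrix (MI k) (MI k) F) = ⊤ := by
        rw [Units.val_one]
        exact fixSp_one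
      refine ⟨1, one_mem _, one_pow r, ?_, ?_⟩
      · rw [h1, finrank_top, Module.finrank_fintype_fun_eq_card, hcard]
        rw [Nat.mod_eq_of_lt hcn] at hmk
        exact hmk.symm
      · rw [h1]
        exact hPtop
  obtain ⟨x, hxiso, hxr, hD, hCnot⟩ := hX
  have hS := cnt_stdE hQ hr hr2 hrq hxiso hxr
  obtain ⟨hCnd, -, -, -, -, -⟩ := hSplit F _ _ r _ hS
  have hone : Nat.card {W : EllSp (Cfsg.quadFormMinus k F a b) m //
      Cfsg.Agent.Lib.Helper23.OHyp.Inv (x : Matrix (MI k) (MI k) F) W.1} = 1 := by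
    rw [Nat.card_eq_one_iff_unique]
    constructor
    · constructor
      rintro ⟨⟨W, hW⟩, hWinv⟩ ⟨⟨W', hW'⟩, hW'inv⟩
      have h1 : W ≤ fixSp (x : Matrix (MI k) (MI k) F) :=
        hFix F _ _ r _ hS W hW.2.1 hWinv (by rw [hW.1]; exact hmc)
      have h2 : W' ≤ fixSp (x : Matrix (MI k) (MI k) F) :=
        hFix F _ _ r _ hS W' hW'.2.1 hW'inv (by rw [hW'.1]; exact hmc)
      have h3 : W = fixSp (x : Matrix (MI k) (MI k) F) :=
        Submodule.eq_of_le_of_finrank_eq h1 (by rw [hW.1, hD])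
      have h4 : W' = fixSp (x : Matrix (MI k) (MI k) F) :=
        Submodule.eq_of_le_of_finrank_eq h2 (by rw [hW'.1, hD])
      apply Subtype.ext
      apply Subtype.ext
      show W = W'
      rw [h3, h4]
    · exact ⟨⟨⟨fixSp (x : Matrix (MI k) (MI k) F), hD, hCnd, hCnot⟩,
        cnt_inv_of_le_fix le_rfl⟩⟩
  have hcong := hCong F _ _ m r hr x hxiso hxr
  rw [hone] at hcong
  have h0 : Nat.card (EllSp (Cfsg.quadFormMinus k F a b) m) % r = 0 :=
    Nat.mod_eq_zero_of_dvd hdvd
  have h1 : Nat.card (EllSp (Cfsg.quadFormMinus k F a b) m) % r = 1 % r := hcong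
  rw [h0, Nat.mod_eq_of_lt hr.one_lt] at h1
  exact absurd h1 (by norm_num)

end Cfsg.Agent.Lib.Helper87.OElm
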